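import Cfsg.Agent.Lib.Geometric.QuadPauli.Fusion
import Cfsg.Agent.Lib.Involutions.Basic

/-!
If centralisers of singular labelled elements lie in `N`, then `N` is the whole group.
-/

set_option autoImplicit false
set_option linter.unusedSectionVars false

namespace CfsgLib.Geometric.QuadPauli

open Module CfsgLib.Involutions

namespace QData

universe u

variable {V : Type*} [AddCommGroup V] [Module (ZMod 2) V] [FiniteDimensional (ZMod 2) V]
  {G : Type u} [Group G] {N : Subgroup G} (D : QData G N V) {L : Submodule (ZMod 2) V}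

/-- A subspace of dimension at least four meeting `L` in at most a line has a singular vector outside
`L`. -/
theorem exists_singular {Z : Submodule (ZMod 2) V} (hZ : 4 ≤ finrank (ZMod 2) Z)
    (hZL : finrank (ZMod 2) (Z ⊓ L : Submodule (ZMod 2) V) ≤ 1) : ∃ v ∈ Z, v ∉ L ∧ D.q v = 0 := by
  obtain ⟨z₁, hz₁, hz₁L⟩ : ∃ z ∈ Z, z ∉ L := by
    by_contra hc
    push Not at hc
    rw [inf_eq_left.2 hc] at hZL
    omega
  by_contra hc
  push Not at hc
  have h1 : ∀ z ∈ Z, z ∉ L → D.q z = 1 := fun z hz hzL => zmod_two_one (hc z hz hzL)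
  set P := (Z ⊓ L) ⊔ Submodule.span (ZMod 2) {z₁} with hP
  obtain ⟨z₂, hz₂, hz₂B, hz₂P⟩ : ∃ z ∈ Z, D.B z₁ z = 0 ∧ z ∉ P := by
    by_contra hn
    push Not at hn
    let f : Z →ₗ[ZMod 2] ZMod 2 := (D.B z₁).domRestrict Z
    have hle : (LinearMap.ker f).map Z.subtype ≤ P := by
      rintro _ ⟨z, hz, rfl⟩
      exact hn z z.2 (LinearMap.mem_ker.1 (SetLike.mem_coe.1 hz))
    have e := LinearMap.finrank_range_add_finrank_ker f
    have e2 : finrank (ZMod 2) (LinearMap.range f) ≤ 1 :=
      (Submodule.finrank_le _).trans_eq (Module.finrank_self _)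
    have e3 := Submodule.finrank_mono hle
    rw [Submodule.finrank_map_subtype_eq] at e3
    have e4 := Submodule.finrank_sup_add_finrank_inf_eq (Z ⊓ L) (Submodule.span (ZMod 2) {z₁})
    rw [← hP] at e4
    have e5 : finrank (ZMod 2) (Submodule.span (ZMod 2) {z₁}) = 1 :=
      finrank_span_singleton fun h => hz₁L (h ▸ L.zero_mem)
    omega
  have hz₂L : z₂ ∉ L := fun h => hz₂P (Submodule.mem_sup_left ⟨hz₂, h⟩)
  have hsL : z₁ + z₂ ∉ L := by
    intro h
    refine hz₂P ?_
    have e : z₂ = (z₁ + z₂) + z₁ := by rw [add_comm z₁ z₂, add_assoc, two_torsion, add_zero]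
    rw [e]
    exact Submodule.add_mem_sup ⟨Z.add_mem hz₁ hz₂, h⟩ (Submodule.mem_span_singleton_self z₁)
  refine hc (z₁ + z₂) (Z.add_mem hz₁ hz₂) hsL ?_
  rw [D.polar, h1 z₁ hz₁ hz₁L, h1 z₂ hz₂ hz₂L, hz₂B]
  decide

/-- Two labels whose elements are not conjugate in the centraliser of `L`. -/
theorem exists_pair (hd : 6 ≤ finrank (ZMod 2) V) (hL : D.Aniso L) :
    ∃ v b, v ∉ L ∧ b ∉ L ∧ D.q v = 0 ∧ (∀ l ∈ L, D.B v l = 0) ∧
      ((L = ⊥ ∧ D.q b = 1) ∨ (D.q b = 0 ∧ ∃ c ∈ L, D.B b c = 1)) := by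
  have hperp : 4 ≤ finrank (ZMod 2) (D.perp L) := by
    have := D.finrank_aniso_le hL
    rw [D.finrank_perp]
    omega
  have hrad : finrank (ZMod 2) (D.perp L ⊓ L : Submodule (ZMod 2) V) ≤ 1 := by
    by_cases h : ∃ r, r ∈ (D.perp L ⊓ L : Submodule (ZMod 2) V) ∧ r ≠ 0
    · obtain ⟨r, hr, hr0⟩ := h
      have hle : D.perp L ⊓ L ≤ Submodule.span (ZMod 2) {r} := fun m hm => by
        by_cases hm0 : m = 0
        · rw [hm0]; exact zero_mem _
        · rw [← D.rad_unique hL hr.2 hm.2 hr0 hm0 fun k hk => (D.sk r k).trans (hr.1 k hk)]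
          exact Submodule.mem_span_singleton_self r
      exact (Submodule.finrank_mono hle).trans_eq (finrank_span_singleton hr0)
    · push Not at h
      rw [(Submodule.eq_bot_iff _).2 h, finrank_bot]
      omega
  obtain ⟨v, hv, hvL, hvq⟩ := D.exists_singular hperp hrad
  have hvP : ∀ l ∈ L, D.B v l = 0 := fun l hl => (D.sk v l).trans (hv l hl)
  refine ⟨v, ?_⟩
  by_cases hbot : L = ⊥
  · subst hbot
    obtain ⟨b, hb⟩ : ∃ b, D.q b = 1 := by
      by_contra hc
      push Not at hc
      have h0 : ∀ z, D.q z = 0 := fun z => (zmod_two_cases _).resolve_right (hc z)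
      refine hvL ((Submodule.mem_bot _).2 (D.nondeg v fun w => ?_))
      have := D.polar v w
      rw [h0, h0, h0, zero_add, zero_add] at this
      exact this.symm
    refine ⟨b, hvL, fun e => ?_, hvq, hvP, Or.inl ⟨rfl, hb⟩⟩
    rw [(Submodule.mem_bot _).1 e, D.q_zero] at hb
    exact zero_ne_one hb
  · obtain ⟨c, hc, hc0⟩ := Submodule.exists_mem_ne_zero_of_ne_bot hbot
    obtain ⟨w, hw⟩ : ∃ w, D.B c w = 1 := by
      by_contra h
      push Not at h
      exact hc0 (D.nondeg c fun w => (zmod_two_cases _).resolve_right (h w))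
    have hBw : D.B w c = 1 := (D.sk w c).trans hw
    obtain ⟨b, hb, hbc⟩ : ∃ b, D.q b = 0 ∧ D.B b c = 1 := by
      rcases zmod_two_cases (D.q w) with hq | hq
      · exact ⟨w, hq, hBw⟩
      set P := D.perp (Submodule.span (ZMod 2) {c, w}) with hPdef
      have hmem : ∀ z, D.B c z = 0 → D.B w z = 0 → z ∈ P := by
        intro z h1 h2 k hk
        obtain ⟨a, a', rfl⟩ := Submodule.mem_span_pair.1 hk
        show D.B (a • c + a' • w) z = 0
        rw [map_add, map_smul, map_smul, LinearMap.add_apply, LinearMap.smul_apply,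
          LinearMap.smul_apply, h1, h2, smul_zero, smul_zero, add_zero]
      -- the component of a vector orthogonal to the plane
      have hproj : ∀ x, x + D.B x w • c + D.B x c • w ∈ P := by
        intro x
        refine hmem _ ?_ ?_
        · simp only [map_add, map_smul, D.B_self, hw, smul_eq_mul, mul_zero, mul_one, add_zero]
          rw [D.sk c x, two_torsion (D.B x c)]
        · simp only [map_add, map_smul, D.B_self, hBw, smul_eq_mul, mul_zero, mul_one, add_zero]
          rw [D.sk w x, two_torsion (D.B x w)]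
      obtain ⟨z, hz, hqz⟩ : ∃ z ∈ P, D.q z = 1 := by
        by_contra hn
        push Not at hn
        have h0 : ∀ z ∈ P, D.q z = 0 := fun z hz => (zmod_two_cases _).resolve_right (hn z hz)
        have hP0 : finrank (ZMod 2) P ≠ 0 := by
          have h2 : finrank (ZMod 2) (Submodule.span (ZMod 2) ({c, w} : Set V)) ≤ 2 := by
            rw [show ({c, w} : Set V) = Set.range ![c, w] by simp [Set.pair_comm]]
            exact (finrank_range_le_card _).trans_eq (Fintype.card_fin 2)
          rw [hPdef, D.finrank_perp]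
          omega
        obtain ⟨p, hp, hp0⟩ := Submodule.exists_mem_ne_zero_of_ne_bot (p := P) fun e => hP0 (by
          rw [e, finrank_bot])
        refine hp0 (D.nondeg p fun x => ?_)
        have hpc : D.B p c = 0 := (D.sk p c).trans (hp c (Submodule.subset_span (by simp)))
        have hpw : D.B p w = 0 := (D.sk p w).trans (hp w (Submodule.subset_span (by simp)))
        have h := D.polar p (x + D.B x w • c + D.B x c • w)
        rw [h0 _ (P.add_mem hp (hproj x)), h0 p hp, h0 _ (hproj x), zero_add, zero_add, map_add, map_add,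
          map_smul, map_smul, hpc, hpw, smul_zero, smul_zero, add_zero, add_zero] at h
        exact h.symm
      refine ⟨w + z, ?_, ?_⟩
      · rw [D.polar, hq, hqz, show D.B w z = 0 from hz w (Submodule.subset_span (by simp))]
        decide
      · rw [map_add, LinearMap.add_apply, hBw,
          show D.B z c = 0 from (D.sk z c).trans (hz c (Submodule.subset_span (by simp))), add_zero]
    refine ⟨b, hvL, fun e => ?_, hvq, hvP, Or.inr ⟨hb, c, hc, hbc⟩⟩
    rw [hL b e hb, map_zero, LinearMap.zero_apply] at hbc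
    exact zero_ne_one hbc

variable [Finite G]

/-- The step at one anisotropic space. -/
theorem mem_of_local (hd : 6 ≤ finrank (ZMod 2) V) (hL : D.Aniso L) (hloc : D.LocalAt L) {g : G}
    (hg : D.InC L g) : g ∈ N := by
  obtain ⟨v, b, hvL, hbL, hvq, hvP, hb⟩ := D.exists_pair hd hL
  have hfus : ∀ {h : G}, D.InC L h → ∀ {a : V}, a ∉ L → h * D.x a * h⁻¹ ∈ N → h ∈ N :=
    fun hh _ ha => D.fusion hL hloc hd hh ha
  have hv0 : v ≠ 0 := fun e => hvL (e ▸ L.zero_mem)
  have hb0 : b ≠ 0 := fun e => hbL (e ▸ L.zero_mem)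
  refine hfus hg hbL ?_
  set r := D.x v with hr
  set y := g * D.x b * g⁻¹ with hy
  have hyC : D.InC L y := D.inC_cx hg b
  have hro : orderOf r = 2 := D.orderOf_x hv0
  have hyo : orderOf y = 2 := (orderOf_conj g (D.x b)).trans (D.orderOf_x hb0)
  have hryC : ∀ i : ℤ, D.InC L ((r * y) ^ i) := fun i l hl =>
    ((D.x_commute v l).mul_left (hyC l hl)).zpow_left i
  -- a conjugate of `r` lying in `N` is an element labelled outside `L`
  have hR : ∀ {h : G}, D.InC L h → h * r * h⁻¹ ∈ N →
      ∃ a, h * r * h⁻¹ = D.x a ∧ D.q a = 0 ∧ ∀ l ∈ L, D.B a l = 0 := by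
    intro h hh hN
    have hhN := hfus hh hvL hN
    refine ⟨D.s h v, D.conj h hhN v, by rw [D.pres_q hhN, hvq], fun l hl => ?_⟩
    rw [← (D.commute_x_iff hhN).1 (hh l hl), D.pres hhN, hvP l hl]
  have hY : ∀ {h : G}, D.InC L h → h * D.x b * h⁻¹ ∈ N →
      ∃ a, h * D.x b * h⁻¹ = D.x a ∧ D.q a = D.q b ∧ ∀ l ∈ L, D.B a l = D.B b l := by
    intro h hh hN
    have hhN := hfus hh hbL hN
    refine ⟨D.s h b, D.conj h hhN b, D.pres_q hhN b, fun l hl => ?_⟩
    conv_lhs => rw [← (D.commute_x_iff hhN).1 (hh l hl), D.pres hhN]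
  have heven : Even (orderOf (r * y)) := Nat.not_odd_iff_even.1 fun hodd => by
    obtain ⟨d, hd', hdy⟩ := exists_conj_eq_of_odd hro hyo hodd
    obtain ⟨k, hk⟩ := mem_closure_pair hro hyo hd'
    have hdC : D.InC L d := by
      rcases hk with rfl | rfl
      · exact hryC k
      · exact D.inC_mul (hryC k) (D.inC_x L v)
    have e : g⁻¹ * d * r * (g⁻¹ * d)⁻¹ = D.x b := by
      calc g⁻¹ * d * r * (g⁻¹ * d)⁻¹ = g⁻¹ * (d * r * d⁻¹) * g := by group
        _ = D.x b := by rw [hdy, hy]; group
    obtain ⟨a, ha, hqa, haP⟩ := hR (D.inC_mul (D.inC_inv hg) hdC) (e ▸ D.x_mem b)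
    have hab : b = a := D.x_inj (e.symm.trans ha)
    subst hab
    rcases hb with ⟨-, hqb⟩ | ⟨-, c, hc, hbc⟩
    · rw [hqb] at hqa; exact one_ne_zero hqa
    · rw [haP c hc] at hbc; exact zero_ne_one hbc
  set w := (r * y) ^ (orderOf (r * y) / 2) with hw
  have hwo : orderOf w = 2 := orderOf_half heven (orderOf_pos _).ne'
  have hwr : Commute w r := commute_half_left hro hyo heven
  have hwy : Commute w y := commute_half_right hro hyo heven
  have hwp : w ∈ Subgroup.zpowers (r * y) := pow_mem (Subgroup.mem_zpowers _) _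
  have hw1 : w ≠ 1 := ne_one hwo
  have hwC : D.InC L w := by
    have := hryC (orderOf (r * y) / 2 : ℕ)
    rwa [zpow_natCast] at this
  have hwN : w ∈ N := hloc v hvL w hwC hwr
  have hrwN : w * r ∈ N := mul_mem hwN (D.x_mem v)
  obtain ⟨j, hj⟩ := Subgroup.mem_zpowers_iff.1 hwp
  -- `w` is labelled, by a label outside `L`
  have key : ∀ a, w * r = D.x a → (∀ l ∈ L, a = v + l → False) → y ∈ N := by
    intro a ha hbad
    have hwa : w = D.x (a + v) := by
      rw [D.x_add, ← ha, mul_assoc, hr, D.x_mul_self, mul_one]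
    refine hloc (a + v) (fun h => hbad _ h ?_) y hyC ?_
    · rw [add_comm v, add_assoc, two_torsion, add_zero]
    · rw [← hwa]
      exact hwy.symm
  rcases Int.even_or_odd' j with ⟨i, rfl | rfl⟩
  · have e : (r * y) ^ i * r * ((r * y) ^ i)⁻¹ = w * r := by
      rw [conj_left_by_zpow hro hyo, hj]
    obtain ⟨a, ha, hqa, haP⟩ := hR (hryC i) (e ▸ hrwN)
    refine key a (e ▸ ha) fun l hl hal => ?_
    by_cases hl0 : l = 0
    · subst hl0
      rw [add_zero] at hal
      subst hal
      exact hw1 (mul_eq_right.1 (e ▸ ha))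
    · rw [hal, D.polar, hvq, D.q_eq_one hL hl hl0, hvP l hl] at hqa
      exact absurd hqa (by decide)
  · have e : (r * y) ^ (i + 1) * g * D.x b * ((r * y) ^ (i + 1) * g)⁻¹ = w * r := by
      calc (r * y) ^ (i + 1) * g * D.x b * ((r * y) ^ (i + 1) * g)⁻¹
          = (r * y) ^ (i + 1) * y * ((r * y) ^ (i + 1))⁻¹ := by rw [hy]; group
        _ = (r * y) ^ (i + 1) * ((r * y) ^ (-1 : ℤ) * r) * ((r * y) ^ (i + 1))⁻¹ := by
          rw [← right_eq_zpow_mul hro hyo]
        _ = (r * y) ^ (-1 : ℤ) * ((r * y) ^ (i + 1) * r * ((r * y) ^ (i + 1))⁻¹) := by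
          rw [← mul_assoc ((r * y) ^ (i + 1)) ((r * y) ^ (-1 : ℤ)), ← zpow_add,
            add_comm (i + 1) (-1 : ℤ), zpow_add]
          simp only [mul_assoc]
        _ = (r * y) ^ (2 * i + 1) * r := by
          rw [conj_left_by_zpow hro hyo, ← mul_assoc, ← zpow_add]
          congr 2
          ring
        _ = w * r := by rw [hj]
    obtain ⟨a, ha, hqa, haP⟩ := hY (D.inC_mul (hryC (i + 1)) hg) (e ▸ hrwN)
    refine key a (e ▸ ha) fun l hl hal => ?_
    by_cases hl0 : l = 0
    · subst hl0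
      rw [add_zero] at hal
      subst hal
      exact hw1 (mul_eq_right.1 (e ▸ ha))
    · rcases hb with ⟨hbot, -⟩ | ⟨hqb, -⟩
      · exact hl0 ((Submodule.mem_bot _).1 (hbot ▸ hl))
      · rw [hal, D.polar, hvq, D.q_eq_one hL hl hl0, hvP l hl, hqb] at hqa
        exact absurd hqa (by decide)

/-- Centralisers of anisotropic spaces of labels lie in `N`. -/
theorem inC_le (hd : 6 ≤ finrank (ZMod 2) V) :
    ∀ L : Submodule (ZMod 2) V, D.Aniso L → ∀ g, D.InC L g → g ∈ N := by
  intro L
  induction h : finrank (ZMod 2) V - finrank (ZMod 2) L using Nat.strong_induction_on generalizing L with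
  | _ n ih =>
    intro hL g hg
    refine D.mem_of_local hd hL (fun v hv g hg hgv => ?_) hg
    by_cases hL' : D.Aniso (L ⊔ Submodule.span (ZMod 2) {v})
    · have hlt : L < L ⊔ Submodule.span (ZMod 2) {v} := lt_of_le_of_ne le_sup_left fun e => hv (by
        rw [e]; exact Submodule.mem_sup_right (Submodule.mem_span_singleton_self v))
      have h1 := Submodule.finrank_lt_finrank_of_lt hlt
      have h2 := Submodule.finrank_le (L ⊔ Submodule.span (ZMod 2) {v})
      refine ih _ (by omega) _ rfl hL' g fun z hz => ?_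
      obtain ⟨l, hl, m, hm, rfl⟩ := Submodule.mem_sup.1 hz
      obtain ⟨k, rfl⟩ := Submodule.mem_span_singleton.1 hm
      rw [D.x_add]
      refine (hg l hl).mul_right ?_
      rcases zmod_two_cases k with rfl | rfl
      · rw [zero_smul, D.x_zero]; exact Commute.one_right g
      · rw [one_smul]; exact hgv
    · rw [Aniso] at hL'
      push Not at hL'
      obtain ⟨z, hz, hzq, hz0⟩ := hL'
      obtain ⟨l, hl, m, hm, rfl⟩ := Submodule.mem_sup.1 hz
      obtain ⟨k, rfl⟩ := Submodule.mem_span_singleton.1 hm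
      refine D.loc _ hz0 hzq g ?_
      rw [D.x_add]
      refine (hg l hl).mul_right ?_
      rcases zmod_two_cases k with rfl | rfl
      · rw [zero_smul, D.x_zero]; exact Commute.one_right g
      · rw [one_smul]; exact hgv

include D in
/-- The global step. -/
theorem eq_top (hd : 6 ≤ finrank (ZMod 2) V) : N = ⊤ :=
  eq_top_iff.2 fun g _ => D.inC_le hd ⊥ (fun l hl _ => (Submodule.mem_bot _).1 hl) g fun l hl => by
    rw [(Submodule.mem_bot _).1 hl, D.x_zero]
    exact Commute.one_right g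

end QData

end CfsgLib.Geometric.QuadPauli
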