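import Mathlib

/-!
A finite group with a subgroup `N` normalising an elementary abelian `2`-subgroup, labelled by a
non-degenerate quadratic space over `𝔽₂`, such that conjugation preserves the quadratic form: basic facts.
-/

set_option autoImplicit false

namespace CfsgLib.Geometric.QuadPauli

open Module

variable {V : Type*} [AddCommGroup V] [Module (ZMod 2) V]

theorem two_torsion (v : V) : v + v = 0 := by
  rw [← two_smul (ZMod 2) v, show (2 : ZMod 2) = 0 by decide, zero_smul]

theorem neg_eq_self (v : V) : -v = v := neg_eq_iff_add_eq_zero.2 (two_torsion v)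

theorem add_eq_zero_iff' (v w : V) : v + w = 0 ↔ v = w := by
  rw [add_eq_zero_iff_eq_neg, neg_eq_self]

theorem zmod_two_cases (c : ZMod 2) : c = 0 ∨ c = 1 := by revert c; decide

theorem zmod_two_one {c : ZMod 2} (h : c ≠ 0) : c = 1 := (zmod_two_cases c).resolve_left h

/-- The data: `x` embeds the quadratic space into `N`, `s` gives the action of `N`. -/
structure QData (G : Type*) [Group G] (N : Subgroup G) (V : Type*) [AddCommGroup V]
    [Module (ZMod 2) V] where
  x : V → G
  q : V → ZMod 2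
  B : V →ₗ[ZMod 2] V →ₗ[ZMod 2] ZMod 2
  s : G → V → V
  x_add : ∀ a b, x (a + b) = x a * x b
  x_inj : Function.Injective x
  x_mem : ∀ a, x a ∈ N
  conj : ∀ n ∈ N, ∀ v, n * x v * n⁻¹ = x (s n v)
  polar : ∀ v w, q (v + w) = q v + q w + B v w
  nondeg : ∀ v, (∀ w, B v w = 0) → v = 0
  ker : ∀ n ∈ N, (∀ v, s n v = v) → ∃ a, n = x a
  sqr : ∀ (g : G) a b, g * x a * g⁻¹ = x b → q a = q b
  trans : ∀ a b, a ≠ 0 → b ≠ 0 → q a = q b → ∃ n ∈ N, s n a = b
  loc : ∀ a, a ≠ 0 → q a = 0 → ∀ g : G, Commute g (x a) → g ∈ N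

namespace QData

variable {G : Type*} [Group G] {N : Subgroup G} (D : QData G N V)

theorem x_zero : D.x 0 = 1 := by
  have h := D.x_add 0 0
  rw [add_zero] at h
  exact mul_eq_left.1 h.symm

theorem x_eq_one {a : V} : D.x a = 1 ↔ a = 0 :=
  ⟨fun h => D.x_inj (h.trans D.x_zero.symm), fun h => h ▸ D.x_zero⟩

theorem x_mul_self (a : V) : D.x a * D.x a = 1 := by rw [← D.x_add, two_torsion, D.x_zero]

theorem x_inv (a : V) : (D.x a)⁻¹ = D.x a := inv_eq_of_mul_eq_one_right (D.x_mul_self a)

theorem x_commute (a b : V) : Commute (D.x a) (D.x b) := by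
  rw [Commute, SemiconjBy, ← D.x_add, ← D.x_add, add_comm]

theorem orderOf_x {a : V} (ha : a ≠ 0) : orderOf (D.x a) = 2 :=
  orderOf_eq_prime (by rw [pow_two, D.x_mul_self]) fun h => ha (D.x_eq_one.1 h)

theorem s_one (v : V) : D.s 1 v = v :=
  D.x_inj (by rw [← D.conj 1 (one_mem N)]; group)

theorem s_mul {n m : G} (hn : n ∈ N) (hm : m ∈ N) (v : V) : D.s (n * m) v = D.s n (D.s m v) :=
  D.x_inj (by rw [← D.conj _ (mul_mem hn hm), ← D.conj n hn, ← D.conj m hm]; group)

theorem s_add {n : G} (hn : n ∈ N) (v w : V) : D.s n (v + w) = D.s n v + D.s n w :=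
  D.x_inj (by rw [D.x_add, ← D.conj n hn, ← D.conj n hn, ← D.conj n hn, D.x_add]; group)

/-- The action as a linear map. -/
def L {n : G} (hn : n ∈ N) : V →ₗ[ZMod 2] V :=
  AddMonoidHom.toZModLinearMap 2 (AddMonoidHom.mk' (D.s n) (D.s_add hn))

@[simp] theorem L_apply {n : G} (hn : n ∈ N) (v : V) : D.L hn v = D.s n v := rfl

theorem s_zero {n : G} (hn : n ∈ N) : D.s n 0 = 0 := map_zero (D.L hn)

theorem commute_x_iff {n : G} (hn : n ∈ N) {v : V} : Commute n (D.x v) ↔ D.s n v = v := by
  constructor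
  · intro h
    exact D.x_inj (by rw [← D.conj n hn, h.eq, mul_inv_cancel_right])
  · intro h
    have := D.conj n hn v
    rw [h, mul_inv_eq_iff_eq_mul] at this
    exact this

theorem B_self (v : V) : D.B v v = 0 := by
  have h0 : D.q 0 = 0 := by
    have h := D.polar 0 0
    rw [add_zero, map_zero, add_zero] at h
    exact add_eq_left.1 h.symm
  have h := D.polar v v
  rw [two_torsion, h0, two_torsion, zero_add] at h
  exact h.symm

theorem q_zero : D.q 0 = 0 := by
  have h := D.polar 0 0
  rw [add_zero, map_zero, add_zero] at h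
  exact add_eq_left.1 h.symm

theorem sk (v w : V) : D.B v w = D.B w v := by
  have h := D.B_self (v + w)
  simp only [map_add, LinearMap.add_apply, D.B_self, add_zero, zero_add] at h
  rw [add_eq_zero_iff_eq_neg, CharTwo.neg_eq] at h
  exact h.symm

theorem pres_q {n : G} (hn : n ∈ N) (v : V) : D.q (D.s n v) = D.q v :=
  (D.sqr n v _ (D.conj n hn v)).symm

theorem pres {n : G} (hn : n ∈ N) (v w : V) : D.B (D.s n v) (D.s n w) = D.B v w := by
  have h := D.polar (D.s n v) (D.s n w)
  rw [← D.s_add hn, D.pres_q hn, D.pres_q hn, D.pres_q hn, D.polar] at h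
  exact (add_left_cancel h).symm

theorem B_bij [FiniteDimensional (ZMod 2) V] : Function.Bijective D.B := by
  have hi : Function.Injective D.B := by
    rw [← LinearMap.ker_eq_bot, Submodule.eq_bot_iff]
    intro v hv
    exact D.nondeg v fun w => by rw [LinearMap.mem_ker.1 hv]; rfl
  refine ⟨hi, (LinearMap.injective_iff_surjective_of_finrank_eq_finrank ?_).1 hi⟩
  rw [Module.finrank_linearMap_self]

theorem B_nondegenerate : LinearMap.BilinForm.Nondegenerate (D.B : LinearMap.BilinForm (ZMod 2) V) :=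
  ⟨fun v h => D.nondeg v h, fun v h => D.nondeg v fun w => (D.sk v w).trans (h w)⟩

/-- Orthogonal space. -/
abbrev perp (W : Submodule (ZMod 2) V) : Submodule (ZMod 2) V :=
  LinearMap.BilinForm.orthogonal (D.B : LinearMap.BilinForm (ZMod 2) V) W

theorem mem_perp {W : Submodule (ZMod 2) V} {v : V} : v ∈ D.perp W ↔ ∀ w ∈ W, D.B w v = 0 :=
  Iff.rfl

theorem finrank_perp [FiniteDimensional (ZMod 2) V] (W : Submodule (ZMod 2) V) :
    finrank (ZMod 2) (D.perp W) = finrank (ZMod 2) V - finrank (ZMod 2) W :=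
  LinearMap.BilinForm.finrank_orthogonal D.B_nondegenerate W

theorem perp_perp [FiniteDimensional (ZMod 2) V] (W : Submodule (ZMod 2) V) :
    D.perp (D.perp W) = W :=
  LinearMap.BilinForm.orthogonal_orthogonal D.B_nondegenerate (fun v w h => (D.sk w v).trans h) W

/-- The displacement `v ↦ s v + v`. -/
def η {n : G} (hn : n ∈ N) : V →ₗ[ZMod 2] V := D.L hn + LinearMap.id

@[simp] theorem η_apply {n : G} (hn : n ∈ N) (v : V) : D.η hn v = D.s n v + v := rfl

/-- Fixed space. -/
def fix {n : G} (hn : n ∈ N) : Submodule (ZMod 2) V := LinearMap.ker (D.η hn)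

theorem mem_fix {n : G} (hn : n ∈ N) {v : V} : v ∈ D.fix hn ↔ D.s n v = v := by
  rw [fix, LinearMap.mem_ker, η_apply, add_eq_zero_iff']

theorem inv_s {n : G} (hn : n ∈ N) (h2 : n * n = 1) (v : V) : D.s n (D.s n v) = v := by
  rw [← D.s_mul hn hn, h2, D.s_one]

theorem range_le_fix {n : G} (hn : n ∈ N) (h2 : n * n = 1) :
    LinearMap.range (D.η hn) ≤ D.fix hn := by
  rintro _ ⟨v, rfl⟩
  rw [mem_fix, η_apply, D.s_add hn, D.inv_s hn h2, add_comm]

theorem η_adj {n : G} (hn : n ∈ N) (h2 : n * n = 1) (v w : V) :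
    D.B (D.η hn v) w = D.B v (D.η hn w) := by
  simp only [η_apply, map_add, LinearMap.add_apply]
  conv_lhs => rw [← D.pres hn (D.s n v) w, D.inv_s hn h2]

/-- A displacement takes the value of the form at the vector it moves. -/
theorem q_η {n : G} (hn : n ∈ N) (v : V) : D.q (D.η hn v) = D.B v (D.η hn v) := by
  have h := D.polar v (D.η hn v)
  have e : v + D.η hn v = D.s n v := by rw [η_apply, add_left_comm, two_torsion, add_zero]
  rw [e, D.pres_q hn, add_assoc] at h
  exact (add_eq_zero_iff' _ _).1 (left_eq_add.1 h)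

theorem finrank_range_add_fix [FiniteDimensional (ZMod 2) V] {n : G} (hn : n ∈ N) :
    finrank (ZMod 2) (LinearMap.range (D.η hn)) + finrank (ZMod 2) (D.fix hn) = finrank (ZMod 2) V :=
  LinearMap.finrank_range_add_finrank_ker (D.η hn)

theorem range_eq_perp_fix [FiniteDimensional (ZMod 2) V] {n : G} (hn : n ∈ N) (h2 : n * n = 1) :
    LinearMap.range (D.η hn) = D.perp (D.fix hn) := by
  refine Submodule.eq_of_le_of_finrank_eq ?_ ?_
  · rintro _ ⟨v, rfl⟩ w hw
    show D.B w (D.η hn v) = 0
    rw [← D.η_adj hn h2, LinearMap.mem_ker.1 hw]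
    simp
  · rw [D.finrank_perp]
    have h := D.finrank_range_add_fix hn
    omega

theorem half_le_fix [FiniteDimensional (ZMod 2) V] {n : G} (hn : n ∈ N) (h2 : n * n = 1) :
    finrank (ZMod 2) V ≤ 2 * finrank (ZMod 2) (D.fix hn) := by
  have h := D.finrank_range_add_fix hn
  have h' := Submodule.finrank_mono (D.range_le_fix hn h2)
  omega

/-- No non-zero singular vector. -/
def Aniso (L : Submodule (ZMod 2) V) : Prop := ∀ l ∈ L, D.q l = 0 → l = 0

/-- Centralising the elements labelled by `L`. -/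
def InC (L : Submodule (ZMod 2) V) (g : G) : Prop := ∀ l ∈ L, Commute g (D.x l)

theorem inC_inv {L : Submodule (ZMod 2) V} {g : G} (h : D.InC L g) : D.InC L g⁻¹ :=
  fun l hl => (h l hl).inv_left

theorem inC_mul {L : Submodule (ZMod 2) V} {g g' : G} (h : D.InC L g) (h' : D.InC L g') :
    D.InC L (g * g') := fun l hl => (h l hl).mul_left (h' l hl)

theorem inC_x (L : Submodule (ZMod 2) V) (v : V) : D.InC L (D.x v) := fun l _ => D.x_commute v l

/-- Conjugate of a labelled element. -/
def cx (g : G) (a : V) : G := g * D.x a * g⁻¹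

theorem cx_add (g : G) (a b : V) : D.cx g (a + b) = D.cx g a * D.cx g b := by
  simp only [cx, D.x_add]; group

theorem cx_sq (g : G) (a : V) : D.cx g a * D.cx g a = 1 := by
  rw [← cx_add, two_torsion, cx, D.x_zero]; group

theorem inC_cx {L : Submodule (ZMod 2) V} {g : G} (h : D.InC L g) (a : V) : D.InC L (D.cx g a) :=
  D.inC_mul (D.inC_mul h (D.inC_x L a)) (D.inC_inv h)

theorem cx_of_mem {L : Submodule (ZMod 2) V} {g : G} (h : D.InC L g) {l : V} (hl : l ∈ L) :
    D.cx g l = D.x l := by rw [cx, (h l hl).eq, mul_inv_cancel_right]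

/-- The labels which `g` moves into `N`. -/
def meet (g : G) : Submodule (ZMod 2) V :=
  AddSubgroup.toZModSubmodule 2
    { carrier := {a | D.cx g a ∈ N}
      zero_mem' := by
        show D.cx g 0 ∈ N
        rw [cx, D.x_zero, mul_one, mul_inv_cancel]
        exact one_mem N
      add_mem' := fun {a b} ha hb => by
        show D.cx g (a + b) ∈ N
        rw [cx_add]
        exact mul_mem ha hb
      neg_mem' := fun {a} ha => by rwa [neg_eq_self] }

theorem mem_meet {g : G} {a : V} : a ∈ D.meet g ↔ D.cx g a ∈ N := Iff.rfl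

theorem le_meet {L : Submodule (ZMod 2) V} {g : G} (h : D.InC L g) : L ≤ D.meet g := fun l hl => by
  rw [mem_meet, D.cx_of_mem h hl]
  exact D.x_mem l

theorem le_fix_of_inC {L : Submodule (ZMod 2) V} {n : G} (hn : n ∈ N) (h : D.InC L n) :
    L ≤ D.fix hn := fun _ hl => (D.mem_fix hn).2 ((D.commute_x_iff hn).1 (h _ hl))

end QData

end CfsgLib.Geometric.QuadPauli
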