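import Cfsg.Agent.Lib.Geometric.QuadPauli.Data

/-!
The fusion lemma: relative to an anisotropic space of labels, an element moving a further labelled element
into `N` lies in `N`, provided centralisers of further labelled elements do.
-/

set_option autoImplicit false
set_option linter.unusedSectionVars false

namespace CfsgLib.Geometric.QuadPauli

open Module

namespace QData

variable {V : Type*} [AddCommGroup V] [Module (ZMod 2) V] [FiniteDimensional (ZMod 2) V]
  {G : Type*} [Group G] {N : Subgroup G} (D : QData G N V) {L : Submodule (ZMod 2) V}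

/-- Centralisers of labelled elements outside `L` lie in `N`, inside the centraliser of `L`. -/
def LocalAt (L : Submodule (ZMod 2) V) : Prop :=
  ∀ v, v ∉ L → ∀ g, D.InC L g → Commute g (D.x v) → g ∈ N

variable (hL : D.Aniso L) (hloc : D.LocalAt L)

include hL in
theorem q_eq_one {l : V} (hl : l ∈ L) (h : l ≠ 0) : D.q l = 1 :=
  zmod_two_one fun h0 => h (hL l hl h0)

include hL in
theorem B_eq_one {l m : V} (hl : l ∈ L) (hm : m ∈ L) (hl0 : l ≠ 0) (hm0 : m ≠ 0) (hne : l ≠ m) :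
    D.B l m = 1 := by
  have h := D.polar l m
  rw [D.q_eq_one hL (L.add_mem hl hm) (fun h => hne ((add_eq_zero_iff' l m).1 h)), D.q_eq_one hL hl hl0,
    D.q_eq_one hL hm hm0, show (1 : ZMod 2) + 1 = 0 by decide, zero_add] at h
  exact h.symm

include hL in
/-- The radical of an anisotropic space has at most one non-zero vector. -/
theorem rad_unique {l m : V} (hl : l ∈ L) (hm : m ∈ L) (hl0 : l ≠ 0) (hm0 : m ≠ 0)
    (hl' : ∀ k ∈ L, D.B l k = 0) : l = m := by
  by_contra hne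
  exact zero_ne_one ((hl' m hm).symm.trans (D.B_eq_one hL hl hm hl0 hm0 hne))

include hL in
theorem finrank_aniso_le : finrank (ZMod 2) L ≤ 2 := by
  rcases Nat.lt_or_ge 2 (finrank (ZMod 2) L) with h | h
  swap
  · exact h
  exfalso
  obtain ⟨l, hl, hl0⟩ : ∃ l ∈ L, l ≠ 0 := by
    apply Submodule.exists_mem_ne_zero_of_ne_bot
    intro e
    rw [e, finrank_bot] at h
    omega
  let f : L →ₗ[ZMod 2] ZMod 2 := (D.B l).domRestrict L
  have h1 := LinearMap.finrank_range_add_finrank_ker f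
  have h2 : finrank (ZMod 2) (LinearMap.range f) ≤ 1 :=
    (Submodule.finrank_le _).trans_eq (Module.finrank_self _)
  have hle : (LinearMap.ker f).map L.subtype ≤ Submodule.span (ZMod 2) {l} := by
    rintro _ ⟨m, hm, rfl⟩
    by_contra hne
    have hm0 : (m : V) ≠ 0 := fun e => hne (by rw [Submodule.subtype_apply, e]; exact zero_mem _)
    have hlm : l ≠ (m : V) := fun e => hne (by
      rw [Submodule.subtype_apply, ← e]; exact Submodule.mem_span_singleton_self l)
    have := D.B_eq_one hL hl m.2 hl0 hm0 hlm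
    exact zero_ne_one ((LinearMap.mem_ker.1 (SetLike.mem_coe.1 hm)).symm.trans this)
  have h3 := Submodule.finrank_mono hle
  rw [Submodule.finrank_map_subtype_eq, finrank_span_singleton hl0] at h3
  omega

include hloc in
/-- Mapping a label outside `L` orthogonal to it to a label. -/
theorem mem_of_cx_eq_x {g : G} (hg : D.InC L g) {c d : V} (hc : c ∉ L) (hperp : ∀ l ∈ L, D.B c l = 0)
    (hL : D.Aniso L) (h : D.cx g c = D.x d) : g ∈ N := by
  have hc0 : c ≠ 0 := fun e => hc (e ▸ L.zero_mem)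
  -- a label with centraliser in `N` in the coset
  obtain ⟨l, hl, hgood⟩ : ∃ l ∈ L, D.q (c + l) = 0 ∨ L = ⊥ := by
    by_cases hbot : L = ⊥
    · exact ⟨0, L.zero_mem, Or.inr hbot⟩
    rcases zmod_two_cases (D.q c) with hq | hq
    · exact ⟨0, L.zero_mem, Or.inl (by rw [add_zero, hq])⟩
    · obtain ⟨l, hl, hl0⟩ := Submodule.exists_mem_ne_zero_of_ne_bot hbot
      exact ⟨l, hl, Or.inl (by rw [D.polar, hq, D.q_eq_one hL hl hl0, hperp l hl]; decide)⟩
  have h' : g * D.x (c + l) * g⁻¹ = D.x (d + l) := by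
    change D.cx g (c + l) = _
    rw [cx_add, h, D.cx_of_mem hg hl, D.x_add]
  have hcl0 : c + l ≠ 0 := fun e => hc (by rw [(add_eq_zero_iff' c l).1 e]; exact hl)
  have hdl0 : d + l ≠ 0 := by
    intro e
    rw [e, D.x_zero, conj_eq_one_iff, D.x_eq_one] at h'
    exact hcl0 h'
  obtain ⟨n, hn, hnd⟩ := D.trans (d + l) (c + l) hdl0 hcl0 (D.sqr g _ _ h').symm
  have hcomm : Commute (n * g) (D.x (c + l)) := by
    have e : n * g * D.x (c + l) * (n * g)⁻¹ = D.x (c + l) := by
      rw [show n * g * D.x (c + l) * (n * g)⁻¹ = n * (g * D.x (c + l) * g⁻¹) * n⁻¹ by group, h',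
        D.conj n hn, hnd]
    rw [mul_inv_eq_iff_eq_mul] at e
    exact e
  refine (N.mul_mem_cancel_left hn).1 ?_
  rcases hgood with hq | hbot
  · exact D.loc _ hcl0 hq _ hcomm
  · refine hloc (c + l) (fun e => ?_) _ (fun k hk => ?_) hcomm
    · rw [hbot, Submodule.mem_bot] at e
      exact hcl0 e
    · rw [hbot, Submodule.mem_bot] at hk
      rw [hk, D.x_zero]
      exact Commute.one_right _

/-- The two displacements of a pair of moved labels correspond. -/
theorem cx_η {g : G} {a v : V} (ha : D.cx g a ∈ N) (hv : D.cx g⁻¹ v ∈ N) :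
    D.cx g (D.η hv a) = D.x (D.η ha v) := by
  have e1 : D.x v * D.x (D.η ha v) * D.x v = D.x (D.η ha v) := by
    rw [(D.x_commute v _).eq, mul_assoc, D.x_mul_self, mul_one]
  have e2 : D.x (D.η ha v) = D.cx g a * D.x v * D.cx g a * D.x v := by
    rw [η_apply, D.x_add, ← D.conj _ ha, inv_eq_of_mul_eq_one_right (D.cx_sq g a)]
  have e3 : D.x (D.η hv a) = g⁻¹ * D.x v * g * D.x a * (g⁻¹ * D.x v * g) * D.x a := by
    rw [η_apply, D.x_add, ← D.conj _ hv, inv_eq_of_mul_eq_one_right (D.cx_sq g⁻¹ v)]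
    simp only [cx, inv_inv]
  rw [← e1, e2]
  unfold cx at e3 ⊢
  rw [e3]
  have hxv := D.x_mul_self v
  simp only [mul_assoc] at hxv ⊢
  simp only [mul_inv_cancel_left, hxv, mul_one]

include hL hloc in
/-- Displacements land in `L`. -/
theorem η_mem {g : G} (hg : D.InC L g) (hgN : g ∉ N) {a v : V} (ha : D.cx g a ∈ N)
    (hv : D.cx g⁻¹ v ∈ N) : D.η ha v ∈ L ∧ D.η hv a = D.η ha v := by
  have hm : D.InC L (D.cx g⁻¹ v) := D.inC_cx (D.inC_inv hg) v
  have hperp : ∀ l ∈ L, D.B (D.η hv a) l = 0 := fun l hl => by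
    rw [D.η_adj hv (D.cx_sq _ _), LinearMap.mem_ker.1 (D.le_fix_of_inC hv hm hl), map_zero]
  have hc : D.η hv a ∈ L := by
    by_contra hc
    exact hgN (D.mem_of_cx_eq_x hloc hg hc hperp hL (D.cx_η ha hv))
  have h := D.cx_η ha hv
  rw [D.cx_of_mem hg hc] at h
  rw [← D.x_inj h]
  exact ⟨hc, rfl⟩

include hL hloc in
/-- A label orthogonal to `L` is fixed exactly. -/
theorem η_eq_zero {g : G} (hg : D.InC L g) (hgN : g ∉ N) {a v : V} (ha : D.cx g a ∈ N)
    (hv : D.cx g⁻¹ v ∈ N) (h : (∀ l ∈ L, D.B a l = 0) ∨ ∀ l ∈ L, D.B v l = 0) :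
    D.η ha v = 0 := by
  obtain ⟨hl, he⟩ := D.η_mem hL hloc hg hgN ha hv
  by_contra h0
  have hq := D.q_eq_one hL hl h0
  rcases h with h | h
  · have e := D.q_η hv a
    rw [he, hq, h _ hl] at e
    exact one_ne_zero e
  · have e := D.q_η ha v
    rw [hq, h _ hl] at e
    exact one_ne_zero e

include hloc in
theorem fix_le_meet {g : G} (hg : D.InC L g) {a : V} (ha : D.cx g a ∈ N) (haL : a ∉ L) :
    D.fix ha ≤ D.meet g⁻¹ := by
  intro v hv
  rw [mem_meet]
  refine hloc a haL _ (D.inC_cx (D.inC_inv hg) v) ?_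
  have h : Commute (D.x v) (D.cx g a) := ((D.commute_x_iff ha).2 ((D.mem_fix ha).1 hv)).symm
  have h' := h.map (MulAut.conj g⁻¹).toMonoidHom
  simpa [cx, mul_assoc] using h'

include hL hloc in
theorem meet_eq_fix {g : G} (hg : D.InC L g) (hgN : g ∉ N) {a : V} (ha : D.cx g a ∈ N) (haL : a ∉ L)
    (haP : ∀ l ∈ L, D.B a l = 0) : D.meet g⁻¹ = D.fix ha :=
  le_antisymm (fun _ hv => LinearMap.mem_ker.2 (D.η_eq_zero hL hloc hg hgN ha hv (Or.inl haP)))
    (D.fix_le_meet hloc hg ha haL)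

include hL hloc in
theorem exists_perp_moved (hd : 6 ≤ finrank (ZMod 2) V) {g : G} (hg : D.InC L g) {a : V}
    (ha : D.cx g a ∈ N) (haL : a ∉ L) :
    ∃ v, v ∉ L ∧ (∀ l ∈ L, D.B v l = 0) ∧ D.cx g⁻¹ v ∈ N := by
  have hLF : L ≤ D.fix ha := D.le_fix_of_inC ha (D.inC_cx hg a)
  suffices h : ¬ D.fix ha ⊓ D.perp L ≤ L by
    obtain ⟨v, hv, hvL⟩ := Set.not_subset.1 h
    exact ⟨v, hvL, fun l hl => (D.sk v l).trans (hv.2 l hl), D.fix_le_meet hloc hg ha haL hv.1⟩
  intro hle
  have h1 := Submodule.finrank_sup_add_finrank_inf_eq (D.fix ha) (D.perp L)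
  have h2 := Submodule.finrank_le (D.fix ha ⊔ D.perp L)
  have h3 := D.half_le_fix ha (D.cx_sq g a)
  have h4 := D.finrank_perp L
  have h5 := D.finrank_aniso_le hL
  have h6 := Submodule.finrank_le L
  have h7 : finrank (ZMod 2) (D.fix ha ⊓ D.perp L : Submodule (ZMod 2) V) ≤ finrank (ZMod 2) L :=
    Submodule.finrank_mono hle
  rcases Nat.lt_or_ge (finrank (ZMod 2) L) 2 with h8 | h8
  · omega
  · have h9 : (D.fix ha ⊓ D.perp L : Submodule (ZMod 2) V) = ⊥ := by
      rw [Submodule.eq_bot_iff]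
      intro z hz
      by_contra hz0
      have hzL : z ∈ L := hle hz
      have h10 : L ≤ Submodule.span (ZMod 2) {z} := fun m hm => by
        by_cases hm0 : m = 0
        · rw [hm0]; exact zero_mem _
        · rw [← D.rad_unique hL hzL hm hz0 hm0 fun k hk => (D.sk z k).trans (hz.2 k hk)]
          exact Submodule.mem_span_singleton_self z
      have := Submodule.finrank_mono h10
      rw [finrank_span_singleton hz0] at this
      omega
    rw [h9, finrank_bot] at h1
    omega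

include hL in
theorem inf_eq_bot {g : G} (hg : D.InC L g) {a : V} (ha : D.cx g a ∈ N)
    (haP : ∀ l ∈ L, D.B a l = 0) : LinearMap.range (D.η ha) ⊓ L = ⊥ := by
  rw [Submodule.eq_bot_iff]
  rintro u ⟨⟨v, rfl⟩, hl⟩
  by_contra h0
  set m := g⁻¹ * D.x v * g
  have hm : m * D.x a * m⁻¹ = D.x (a + D.η ha v) := by
    have e1 : D.x (D.η ha v) = g⁻¹ * D.x (D.η ha v) * g := by
      rw [((D.inC_inv hg) _ hl).eq, inv_mul_cancel_right]
    rw [D.x_add, e1, η_apply, D.x_add, ← D.conj _ ha]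
    simp only [m, cx, mul_inv_rev, inv_inv, D.x_inv]
    group
    simp [D.x_mul_self]
  have hq := D.sqr _ _ _ hm
  rw [D.polar, haP _ hl, D.q_eq_one hL hl h0, add_zero] at hq
  exact one_ne_zero (add_eq_left.1 hq.symm)

include hL in
theorem two_mul_range_le {g : G} (hg : D.InC L g) {a : V} (ha : D.cx g a ∈ N)
    (haP : ∀ l ∈ L, D.B a l = 0) :
    2 * finrank (ZMod 2) (LinearMap.range (D.η ha)) + finrank (ZMod 2) L ≤ finrank (ZMod 2) V := by
  have h1 := Submodule.finrank_sup_add_finrank_inf_eq (LinearMap.range (D.η ha)) L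
  rw [D.inf_eq_bot hL hg ha haP, finrank_bot] at h1
  have h2 : finrank (ZMod 2) (LinearMap.range (D.η ha) ⊔ L : Submodule (ZMod 2) V) ≤
      finrank (ZMod 2) (D.fix ha) := Submodule.finrank_mono
    (sup_le (D.range_le_fix ha (D.cx_sq g a)) (D.le_fix_of_inC ha (D.inC_cx hg a)))
  have h3 := D.finrank_range_add_fix ha
  omega

include hL hloc in
/-- The fusion lemma. -/
theorem fusion (hd : 6 ≤ finrank (ZMod 2) V) {g : G} (hg : D.InC L g) {a₀ : V} (ha₀L : a₀ ∉ L)
    (ha₀ : g * D.x a₀ * g⁻¹ ∈ N) : g ∈ N := by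
  by_contra hgN
  change D.cx g a₀ ∈ N at ha₀
  have hg' : D.InC L g⁻¹ := D.inC_inv hg
  have hgN' : g⁻¹ ∉ N := fun h => hgN (inv_mem_iff.1 h)
  obtain ⟨v₁, hv₁L, hv₁P, hv₁⟩ := D.exists_perp_moved hL hloc hd hg ha₀ ha₀L
  obtain ⟨a₁, ha₁L, ha₁P, ha₁⟩ := D.exists_perp_moved hL hloc hd hg' hv₁ hv₁L
  rw [inv_inv] at ha₁
  have hW := D.meet_eq_fix hL hloc hg hgN ha₁ ha₁L ha₁P
  have hA : D.meet g = D.fix hv₁ := by
    have h := D.meet_eq_fix hL hloc hg' hgN' hv₁ hv₁L hv₁P
    rwa [inv_inv] at h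
  set W := D.meet g⁻¹ with hWdef
  set U := LinearMap.range (D.η ha₁) with hUdef
  have hU : U = D.perp W := by rw [hW, hUdef, D.range_eq_perp_fix ha₁ (D.cx_sq g a₁)]
  have hUW : U ≤ W := by rw [hW]; exact D.range_le_fix ha₁ (D.cx_sq g a₁)
  have hLW : L ≤ W := D.le_meet hg'
  have hUperp : ∀ u ∈ U, ∀ w ∈ W, D.B w u = 0 := fun u hu w hw => by
    rw [hU] at hu; exact hu w hw
  have hUL : U ⊓ L = ⊥ := D.inf_eq_bot hL hg ha₁ ha₁P
  -- the radical
  set R := L ⊓ D.perp L with hR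
  -- displacements of moved labels lie in `U ⊔ R`
  have hmemZ : ∀ (b : V) (hb : D.cx g b ∈ N), b ∉ L → ∀ v, D.η hb v ∈ U ⊔ R := by
    intro b hb hbL v
    have h1 : W ⊓ D.perp L ≤ D.fix hb := fun w hw => LinearMap.mem_ker.2
      (D.η_eq_zero hL hloc hg hgN hb hw.1 (Or.inr fun l hl => (D.sk w l).trans (hw.2 l hl)))
    have h2 : W ⊓ D.perp L = D.perp (U ⊔ L) := by
      ext w
      constructor
      · intro hw y hy
        obtain ⟨p, hp, l, hl, rfl⟩ := Submodule.mem_sup.1 hy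
        show D.B (p + l) w = 0
        rw [map_add, LinearMap.add_apply, D.sk p w, hUperp p hp w hw.1, hw.2 l hl, add_zero]
      · intro hw
        have hwW : w ∈ D.perp (D.perp W) := fun u hu => hw u (Submodule.mem_sup_left (hU.symm ▸ hu))
        rw [D.perp_perp] at hwW
        exact ⟨hwW, fun l hl => hw l (Submodule.mem_sup_right hl)⟩
    have h3 : D.η hb v ∈ U ⊔ L := by
      rw [← D.perp_perp (U ⊔ L)]
      intro w hw
      show D.B w (D.η hb v) = 0
      rw [← D.η_adj hb (D.cx_sq g b), LinearMap.mem_ker.1 (h1 (h2 ▸ hw)), map_zero, LinearMap.zero_apply]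
    obtain ⟨u, hu, l, hl, he⟩ := Submodule.mem_sup.1 h3
    refine Submodule.mem_sup.2 ⟨u, hu, l, ⟨hl, fun k hk => ?_⟩, he⟩
    have h4 : D.B k (D.η hb v) = 0 := by
      rw [← D.η_adj hb (D.cx_sq g b),
        LinearMap.mem_ker.1 (D.le_fix_of_inC hb (D.inC_cx hg b) hk), map_zero, LinearMap.zero_apply]
    rw [← he, map_add, hUperp u hu k (hLW hk), zero_add] at h4
    exact h4
  have hW' : W ≠ ⊤ := by
    intro h
    obtain ⟨d, hd'⟩ := D.ker _ ha₁ fun v => (D.mem_fix ha₁).1 (hW ▸ h ▸ Submodule.mem_top)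
    exact hgN (D.mem_of_cx_eq_x hloc hg ha₁L ha₁P hL hd')
  have hU0 : U ≠ ⊥ := by
    intro h
    refine hW' (le_antisymm le_top fun v _ => ?_)
    rw [hW]
    have : D.η ha₁ v ∈ U := ⟨v, rfl⟩
    rw [h, Submodule.mem_bot] at this
    exact LinearMap.mem_ker.2 this
  -- additivity
  have hadd : ∀ (b b' : V) (hb : D.cx g b ∈ N) (hb' : D.cx g b' ∈ N) (hbb : D.cx g (b + b') ∈ N) v,
      D.η hbb v = D.η hb v + D.η hb' v := by
    intro b b' hb hb' hbb v
    have hz : D.s (D.cx g b) (D.η hb' v) = D.η hb' v := by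
      rcases em (b' ∈ L) with hb'L | hb'L
      · have : D.η hb' v = 0 := by
          rw [η_apply]
          have e : D.s (D.cx g b') v = v := by
            rw [← D.commute_x_iff hb', D.cx_of_mem hg hb'L]
            exact D.x_commute _ _
          rw [e, two_torsion]
        rw [this, D.s_zero hb]
      · obtain ⟨u, hu, r, hr, he⟩ := Submodule.mem_sup.1 (hmemZ b' hb' hb'L v)
        rw [← he, D.s_add hb, (D.commute_x_iff hb).1 (D.inC_cx hg b r hr.1)]
        congr 1
        refine (D.mem_fix hb).1 (LinearMap.mem_ker.2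
          (D.η_eq_zero hL hloc hg hgN hb (hUW hu) (Or.inr fun l hl => ?_)))
        exact (D.sk u l).trans (hUperp u hu l (hLW hl))
    simp only [η_apply] at hz ⊢
    rw [show D.s (D.cx g (b + b')) v = D.s (D.cx g b) (D.s (D.cx g b') v) by rw [cx_add, D.s_mul hb hb']]
    rw [D.s_add hb] at hz
    calc D.s (D.cx g b) (D.s (D.cx g b') v) + v
        = D.s (D.cx g b) (D.s (D.cx g b') v) + D.s (D.cx g b) v + (D.s (D.cx g b) v + v) := by
          rw [add_assoc, ← add_assoc (D.s (D.cx g b) v), two_torsion, zero_add]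
      _ = _ := by rw [hz, add_comm]
  -- for a vector outside `W` only `L` is killed modulo `R`
  have hker : ∀ v₀, v₀ ∉ W → ∀ (b : V) (hb : D.cx g b ∈ N), D.η hb v₀ ∈ R → b ∈ L := by
    intro v₀ hv₀ b hb hr
    by_contra hbL
    have hFW : D.fix hb ≤ W := D.fix_le_meet hloc hg hb hbL
    have hr0 : D.η hb v₀ ≠ 0 := fun h => hv₀ (hFW (LinearMap.mem_ker.2 h))
    obtain ⟨w, hwW, hw⟩ : ∃ w ∈ W, w ∉ D.fix hb := by
      by_contra hc
      push Not at hc
      have e : D.fix hb = W := le_antisymm hFW hc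
      have : D.η hb v₀ ∈ U ⊓ L := by
        refine ⟨?_, hr.1⟩
        rw [hU, ← e, ← D.range_eq_perp_fix hb (D.cx_sq g b)]
        exact ⟨v₀, rfl⟩
      rw [hUL, Submodule.mem_bot] at this
      exact hr0 this
    have hw0 : D.η hb w ≠ 0 := fun h => hw (LinearMap.mem_ker.2 h)
    have hwr := D.rad_unique hL hr.1 (D.η_mem hL hloc hg hgN hb hwW).1 hr0 hw0
      fun k hk => (D.sk _ k).trans (hr.2 k hk)
    refine hv₀ ((W.add_mem_iff_left hwW).1 (hFW (LinearMap.mem_ker.2 ?_)))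
    rw [map_add, ← hwr, two_torsion]
  have hUR : Disjoint U R := disjoint_iff.2 (le_bot_iff.1 ((inf_le_inf_left U inf_le_left).trans hUL.le))
  -- the dimension count
  have hbound : ∀ v₀, v₀ ∉ W → ∀ K : Submodule (ZMod 2) V,
      (∀ (b : V) (hb : D.cx g b ∈ N), b ∉ L → D.η hb v₀ ∈ K ⊔ R) →
        finrank (ZMod 2) (D.meet g) ≤ finrank (ZMod 2) L + finrank (ZMod 2) K := by
    intro v₀ hv₀ K hK
    let Ψ : D.meet g →ₗ[ZMod 2] V ⧸ R := AddMonoidHom.toZModLinearMap 2 (AddMonoidHom.mk'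
      (fun b => R.mkQ (D.η b.2 v₀)) fun b b' => by
        rw [← map_add]; exact congrArg R.mkQ (hadd b b' b.2 b'.2 (b + b').2 v₀))
    have hΨ : ∀ b : D.meet g, Ψ b = R.mkQ (D.η b.2 v₀) := fun b => rfl
    have h1 := LinearMap.finrank_range_add_finrank_ker Ψ
    have h2 : (LinearMap.ker Ψ).map (D.meet g).subtype ≤ L := by
      rintro _ ⟨b, hb, rfl⟩
      exact hker v₀ hv₀ b b.2 ((Submodule.Quotient.mk_eq_zero R).1 (LinearMap.mem_ker.1 hb))
    have h3 : LinearMap.range Ψ ≤ K.map R.mkQ := by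
      rintro _ ⟨b, rfl⟩
      rw [hΨ]
      by_cases hbL : (b : V) ∈ L
      · have : D.η b.2 v₀ = 0 := by
          show D.s (D.cx g b) v₀ + v₀ = 0
          have e : D.s (D.cx g b) v₀ = v₀ := by
            rw [← D.commute_x_iff b.2, D.cx_of_mem hg hbL]
            exact D.x_commute _ _
          rw [e, two_torsion]
        rw [this, map_zero]
        exact zero_mem _
      · obtain ⟨p, hp, r, hr, he⟩ := Submodule.mem_sup.1 (hK b b.2 hbL)
        refine ⟨p, hp, ?_⟩
        rw [← he, map_add, Submodule.mkQ_apply R r, (Submodule.Quotient.mk_eq_zero R).2 hr, add_zero]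
    have h4 := Submodule.finrank_mono h2
    rw [Submodule.finrank_map_subtype_eq] at h4
    have h5 := Submodule.finrank_mono h3
    have h6 := Submodule.finrank_map_le R.mkQ K
    omega
  have hAcard := D.finrank_range_add_fix hv₁
  rw [← hA] at hAcard
  have hbA := D.two_mul_range_le hL hg' hv₁ hv₁P
  have hbW := D.two_mul_range_le hL hg ha₁ ha₁P
  rw [← hUdef] at hbW
  have hl2 := D.finrank_aniso_le hL
  rcases Nat.lt_or_ge (finrank (ZMod 2) U) 2 with hU2 | hU2
  · obtain ⟨v₀, hv₀⟩ : ∃ v₀, v₀ ∉ W := by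
      by_contra hc
      push Not at hc
      exact hW' (le_antisymm le_top fun v _ => hc v)
    have := hbound v₀ hv₀ U fun b hb hbL => hmemZ b hb hbL v₀
    omega
  -- a linear form on `U ⊔ R` given by `q`
  have hZ0 : ∀ y ∈ U ⊔ R, ∀ z ∈ U ⊔ R, D.B y z = 0 := by
    intro y hy z hz
    obtain ⟨p, hp, r, hr, rfl⟩ := Submodule.mem_sup.1 hy
    obtain ⟨p', hp', r', hr', rfl⟩ := Submodule.mem_sup.1 hz
    simp only [map_add, LinearMap.add_apply]
    rw [hUperp p' hp' p (hUW hp), hUperp p' hp' r (hLW hr.1), D.sk p r', hUperp p hp r' (hLW hr'.1),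
      hr'.2 r hr.1]
    simp
  let qf : (U ⊔ R : Submodule (ZMod 2) V) →ₗ[ZMod 2] ZMod 2 := AddMonoidHom.toZModLinearMap 2
    (AddMonoidHom.mk' (fun z => D.q z) fun y z => by
      show D.q ((y : V) + z) = _
      rw [D.polar, hZ0 _ y.2 _ z.2, add_zero])
  obtain ⟨f₀, hf₀⟩ := LinearMap.exists_extend qf
  obtain ⟨u₂, hu₂, hu₂0, hqu₂⟩ : ∃ u ∈ U, u ≠ 0 ∧ D.q u = 0 := by
    by_contra hc
    push Not at hc
    obtain ⟨u, hu, hu0⟩ := Submodule.exists_mem_ne_zero_of_ne_bot hU0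
    have hle : U ≤ Submodule.span (ZMod 2) {u} := by
      intro z hz
      by_cases hz0 : z = 0
      · rw [hz0]; exact zero_mem _
      by_cases hzu : z = u
      · rw [hzu]; exact Submodule.mem_span_singleton_self u
      have h := hc (z + u) (U.add_mem hz hu) fun e => hzu ((add_eq_zero_iff' z u).1 e)
      rw [D.polar, zmod_two_one (hc z hz hz0), zmod_two_one (hc u hu hu0),
        hUperp u hu z (hUW hz)] at h
      exact absurd (by decide) h
    have := Submodule.finrank_mono hle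
    rw [finrank_span_singleton hu0] at this
    omega
  have hu₂R : u₂ ∉ R := fun h => hu₂0 (Submodule.disjoint_def.1 hUR u₂ hu₂ h)
  obtain ⟨μ, hμu, hμR⟩ := Submodule.exists_dual_map_eq_bot_of_notMem hu₂R inferInstance
  obtain ⟨v₀, hv₀⟩ := D.B_bij.2 (f₀ + μ)
  have hv₀z : ∀ z, ∀ hz : z ∈ U ⊔ R, D.B v₀ z = D.q z + μ z := by
    intro z hz
    rw [hv₀, LinearMap.add_apply]
    congr 1
    exact LinearMap.congr_fun hf₀ ⟨z, hz⟩
  have hv₀W : v₀ ∉ W := by
    intro hw
    have h := hv₀z u₂ (Submodule.mem_sup_left hu₂)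
    rw [hUperp u₂ hu₂ v₀ hw, hqu₂, zero_add] at h
    exact hμu h.symm
  have hK : finrank (ZMod 2) (U ⊓ LinearMap.ker μ : Submodule (ZMod 2) V) < finrank (ZMod 2) U := by
    refine Submodule.finrank_lt_finrank_of_lt (lt_of_le_of_ne inf_le_left fun e => hμu ?_)
    exact LinearMap.mem_ker.1 (inf_eq_left.1 e hu₂)
  have := hbound v₀ hv₀W (U ⊓ LinearMap.ker μ) fun b hb hbL => by
    have hz := hmemZ b hb hbL v₀
    obtain ⟨p, hp, r, hr, he⟩ := Submodule.mem_sup.1 hz
    refine Submodule.mem_sup.2 ⟨p, ⟨hp, LinearMap.mem_ker.2 ?_⟩, r, hr, he⟩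
    have e1 := hv₀z _ hz
    rw [← D.q_η hb v₀, left_eq_add, ← he, map_add] at e1
    have e2 : μ r = 0 := by
      have : μ r ∈ Submodule.map μ R := ⟨r, hr, rfl⟩
      rwa [hμR, Submodule.mem_bot] at this
    rwa [e2, add_zero] at e1
  omega

end QData

end CfsgLib.Geometric.QuadPauli
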